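-- Project CS3 (S4284), part NG, package [F4] (helper84).
import Mathlib
import Cfsg.Agent.Lib.Helper81.CS3.NGDefs

set_option autoImplicit false

namespace Cfsg.Agent.Lib.Helper84.CS3

open Cfsg.Agent.Lib.Helper81.CS3

universe u

/-- commuting elements of coprime orders are powers of their product. -/
theorem pow_of_coprime {G : Type u} [Group G] {w y : G} (hc : Commute w y)
    (hcop : (orderOf w).Coprime (orderOf y)) :
    (∃ e : ℤ, (w * y) ^ e = w) ∧ (∃ e : ℤ, (w * y) ^ e = y) := by
  have hb := Nat.gcd_eq_gcd_ab (orderOf w) (orderOf y)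
  rw [hcop.gcd_eq_one] at hb
  have hw0 : w ^ ((orderOf w : ℤ) * Nat.gcdA (orderOf w) (orderOf y)) = 1 := by
    rw [zpow_mul, zpow_natCast, pow_orderOf_eq_one, one_zpow]
  have hy0 : y ^ ((orderOf y : ℤ) * Nat.gcdB (orderOf w) (orderOf y)) = 1 := by
    rw [zpow_mul, zpow_natCast, pow_orderOf_eq_one, one_zpow]
  constructor
  · refine ⟨(orderOf y : ℤ) * Nat.gcdB (orderOf w) (orderOf y), ?_⟩
    rw [hc.mul_zpow, hy0, mul_one]
    have h1 : (orderOf y : ℤ) * Nat.gcdB (orderOf w) (orderOf y) =
        1 - (orderOf w : ℤ) * Nat.gcdA (orderOf w) (orderOf y) := by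
      push_cast at hb
      linarith
    rw [h1, zpow_sub, zpow_one, hw0, inv_one, mul_one]
  · refine ⟨(orderOf w : ℤ) * Nat.gcdA (orderOf w) (orderOf y), ?_⟩
    rw [hc.mul_zpow, hw0, one_mul]
    have h1 : (orderOf w : ℤ) * Nat.gcdA (orderOf w) (orderOf y) =
        1 - (orderOf y : ℤ) * Nat.gcdB (orderOf w) (orderOf y) := by
      push_cast at hb
      linarith
    rw [h1, zpow_sub, zpow_one, hy0, inv_one, mul_one]

theorem mem_cent_iff {G : Type u} [Group G] (a g : G) :
    g ∈ Subgroup.centralizer ({a} : Set G) ↔ Commute g a := by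
  simp only [Subgroup.mem_centralizer_iff, Set.mem_singleton_iff, forall_eq]
  exact ⟨fun h => h.symm, fun h => h.symm⟩

/-- the class index of any element is `1`, `m` or `m n`. -/
theorem idx_cases {G : Type u} [Group G] {m n : ℕ} (hyp : Hyp G m n) (x : G) :
    idx x = 1 ∨ idx x = m ∨ idx x = m * n := by
  have hmem : idx x ∈ ({1, m, m * n} : Set ℕ) := by
    rw [← hyp.2.2.2.2]
    exact ⟨x, rfl⟩
  simpa using hmem

/-- equal index and inclusion give equality of centralizers. -/
theorem cent_eq_of_le_of_idx {G : Type u} [Group G] [Finite G] {a b : G}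
    (hle : Subgroup.centralizer ({a} : Set G) ≤ Subgroup.centralizer ({b} : Set G))
    (h : idx a = idx b) :
    Subgroup.centralizer ({a} : Set G) = Subgroup.centralizer ({b} : Set G) := by
  apply Subgroup.eq_of_le_of_card_ge hle
  have h1 := Subgroup.card_mul_index (Subgroup.centralizer ({a} : Set G))
  have h2 := Subgroup.card_mul_index (Subgroup.centralizer ({b} : Set G))
  have h3 : (Subgroup.centralizer ({a} : Set G)).index = (Subgroup.centralizer ({b} : Set G)).index := h
  rw [h3] at h1
  have hpos : 0 < (Subgroup.centralizer ({b} : Set G)).index :=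
    Nat.pos_of_ne_zero (Subgroup.index_ne_zero_of_finite)
  exact (Nat.eq_of_mul_eq_mul_right hpos (h1.trans h2.symm)).ge

theorem pkgF4 : PkgF4.{u} := by
  intro G _ _ m n hyp r w y hr hw hidx hc hcop g hg
  obtain ⟨k, hk⟩ := hw
  have hcop' : (orderOf w).Coprime (orderOf y) := by
    rw [hk]
    exact Nat.Coprime.pow_left k hcop.symm
  obtain ⟨⟨e1, he1⟩, ⟨e2, he2⟩⟩ := pow_of_coprime hc hcop'
  have hle : Subgroup.centralizer ({w * y} : Set G) ≤ Subgroup.centralizer ({w} : Set G) := by
    intro h hh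
    rw [mem_cent_iff] at hh ⊢
    have h1 := hh.zpow_right e1
    rwa [he1] at h1
  have hdvd : idx w ∣ idx (w * y) := Subgroup.index_dvd_of_le hle
  have hidx2 : idx (w * y) = m * n := by
    have hm := hyp.2.1
    have hn := hyp.2.2.1
    rw [hidx] at hdvd
    rcases idx_cases hyp (w * y) with h | h | h
    · rw [h] at hdvd
      have := Nat.le_of_dvd one_pos hdvd
      nlinarith
    · rw [h] at hdvd
      have := Nat.le_of_dvd (by omega) hdvd
      nlinarith
    · exact h
  have heq := cent_eq_of_le_of_idx hle (hidx2.trans hidx.symm)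
  have hg' : g ∈ Subgroup.centralizer ({w * y} : Set G) := by
    rw [heq, mem_cent_iff]
    exact hg
  rw [mem_cent_iff] at hg'
  have h2 := hg'.zpow_right e2
  rwa [he2] at h2

end Cfsg.Agent.Lib.Helper84.CS3
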