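-- Project CS3 (S4284), part NG, package [MELT] (helper84).
import Mathlib
import Cfsg.Agent.Lib.Helper81.CS3.NGDefs
import Cfsg.Agent.Lib.Helper84.CS3.F4

set_option autoImplicit false

namespace Cfsg.Agent.Lib.Helper84.CS3

open Cfsg.Agent.Lib.Helper81.CS3

universe u

/-- a non-central element has a non-central power of prime power order. -/
theorem exists_primary_pow_noncentral {G : Type u} [Group G] [Finite G] :
    ∀ (N : ℕ) (g : G), orderOf g = N → g ∉ Subgroup.center G →
      ∃ (e r k : ℕ), r.Prime ∧ orderOf (g ^ e) = r ^ k ∧ g ^ e ∉ Subgroup.center G := by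
  intro N
  induction N using Nat.strong_induction_on with
  | _ N ih =>
    intro g hN hg
    have hNpos : 0 < N := by rw [← hN]; exact orderOf_pos g
    have hN1 : N ≠ 1 := by
      intro h
      rw [h, orderOf_eq_one_iff] at hN
      exact hg (hN ▸ Subgroup.one_mem _)
    have hr : (Nat.minFac N).Prime := Nat.minFac_prime hN1
    have hrN0 : Nat.minFac N ∣ N := Nat.minFac_dvd N
    generalize Nat.minFac N = r at hr hrN0
    obtain ⟨e, b, hrb, hNe⟩ := Nat.exists_eq_pow_mul_and_not_dvd hNpos.ne' r hr.ne_one
    by_cases hb1 : b = 1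
    · refine ⟨1, r, e, hr, ?_, ?_⟩
      · rw [pow_one, hN, hNe, hb1, mul_one]
      · rwa [pow_one]
    · have hbpos : 0 < b := by
        rcases Nat.eq_zero_or_pos b with h | h
        · rw [h, mul_zero] at hNe; omega
        · exact h
      have hapos : 0 < r ^ e := pow_pos hr.pos e
      have he0 : e ≠ 0 := by
        intro h
        rw [h, pow_zero, one_mul] at hNe
        exact hrb (hNe ▸ hrN0)
      have ha1 : 1 < r ^ e := Nat.one_lt_pow he0 hr.one_lt
      have hcop : Nat.Coprime (r ^ e) b :=
        Nat.Coprime.pow_left e ((Nat.Prime.coprime_iff_not_dvd hr).mpr hrb)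
      -- orders of the two powers
      have hordb : orderOf (g ^ b) = r ^ e := by
        rw [orderOf_pow, hN, hNe, Nat.gcd_mul_left_left, Nat.mul_div_cancel _ hbpos]
      have horda : orderOf (g ^ (r ^ e)) = b := by
        rw [orderOf_pow, hN, hNe, Nat.gcd_mul_right_left, Nat.mul_div_cancel_left _ hapos]
      by_cases hgb : g ^ b ∈ Subgroup.center G
      · -- then g ^ a is not central
        have hga : g ^ (r ^ e) ∉ Subgroup.center G := by
          intro hga
          apply hg
          have hbez := Nat.gcd_eq_gcd_ab (r ^ e) b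
          rw [hcop.gcd_eq_one] at hbez
          have h1 : g = (g ^ (r ^ e)) ^ (Nat.gcdA (r ^ e) b) *
              (g ^ b) ^ (Nat.gcdB (r ^ e) b) := by
            rw [← zpow_natCast, ← zpow_natCast, ← zpow_mul, ← zpow_mul, ← zpow_add, ← hbez]
            simp
          rw [h1]
          exact Subgroup.mul_mem _ (Subgroup.zpow_mem _ hga _) (Subgroup.zpow_mem _ hgb _)
        have hlt : b < N := by
          rw [hNe]
          nlinarith
        obtain ⟨e', r', k', hr', hord', hnc'⟩ := ih b hlt (g ^ (r ^ e)) horda hga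
        refine ⟨r ^ e * e', r', k', hr', ?_, ?_⟩
        · rw [pow_mul]; exact hord'
        · rw [pow_mul]; exact hnc'
      · exact ⟨b, r, e, hr, hordb, hgb⟩

theorem idx_eq_one_iff {G : Type u} [Group G] (x : G) : idx x = 1 ↔ x ∈ Subgroup.center G := by
  rw [Subgroup.index_eq_one, Subgroup.mem_center_iff]
  constructor
  · intro h g
    have hg : g ∈ Subgroup.centralizer ({x} : Set G) := by rw [h]; trivial
    rw [mem_cent_iff] at hg
    exact hg.eq
  · intro h
    rw [eq_top_iff]
    intro g _
    rw [mem_cent_iff]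
    exact h g

theorem pkgMelt : PkgMelt.{u} := by
  intro G _ _ m n hyp hng
  have hm := hyp.2.1
  have hn := hyp.2.2.1
  have hmem : m ∈ Set.range (fun x : G => (Subgroup.centralizer ({x} : Set G)).index) := by
    rw [hyp.2.2.2.2]
    simp
  obtain ⟨x0, hx0⟩ := hmem
  have hx0' : idx x0 = m := hx0
  have hx0c : x0 ∉ Subgroup.center G := by
    intro h
    rw [← idx_eq_one_iff, hx0'] at h
    omega
  obtain ⟨e, r, k, hr, hord, hnc⟩ := exists_primary_pow_noncentral _ x0 rfl hx0c
  have hle : Subgroup.centralizer ({x0} : Set G) ≤ Subgroup.centralizer ({x0 ^ e} : Set G) := by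
    intro h hh
    rw [mem_cent_iff] at hh ⊢
    exact hh.pow_right e
  have hdvd : idx (x0 ^ e) ∣ m := by
    rw [← hx0']
    exact Subgroup.index_dvd_of_le hle
  have hidx : idx (x0 ^ e) = m := by
    rcases idx_cases hyp (x0 ^ e) with h | h | h
    · exact absurd ((idx_eq_one_iff _).mp h) hnc
    · exact h
    · rw [h] at hdvd
      have := Nat.le_of_dvd (by omega) hdvd
      nlinarith
  refine ⟨x0 ^ e, r, k, hr, ?_, hord, hidx⟩
  intro hrm
  exact hng ⟨x0 ^ e, hidx, r, k, hr, hrm, hord⟩

end Cfsg.Agent.Lib.Helper84.CS3
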